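import Cfsg.Agent.H504.ZeroTI
import Cfsg.Agent.H956.OZ.Loc

/-!
# One class of zeros and a self-centralizing torus (helper210, S4842)

`T` abelian with `C_G(a) = T` for `1 ≠ a ∈ T` (`CC T`), `|N_G(T)| = w t`, `|T| = t`, `c ≤ |C_G(x)|`; `χ` vanishes exactly
on the class of `x`.  Under numerical conditions `χ` is constant `e = ±1` on `T ∖ 1` and `χ(1) ≡ e` modulo `t`.
-/

set_option autoImplicit false

namespace Cfsg.Agent.H210.Van

open Cfsg Cfsg.Agent.Characters Finset Cfsg.Agent.H732.VZ Cfsg.Agent.H686.CharKit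
open Cfsg.Agent.H504.ZeroTI Cfsg.Agent.H956.OZ.Loc
open scoped ComplexConjugate

universe u

variable {G : Type u} [Group G]

theorem tst_eq {T : Subgroup G} (hT : CC T) (hne : T ≠ ⊤) : Tst T = {a | a ∈ T ∧ a ≠ 1} := by
  ext a
  constructor
  · rintro ⟨h1, h2⟩
    refine ⟨h1, ?_⟩
    rintro rfl
    apply hne
    rw [← h2, eq_top_iff]
    intro y _
    rw [Subgroup.mem_centralizer_singleton_iff, mul_one, one_mul]
  · rintro ⟨h1, h2⟩
    exact ⟨h1, hT.cent a h1 h2⟩

open scoped Classical in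
/-- sum of a class function over the conjugates of `Tst T` -/
theorem sum_YT [Fintype G] (T : Subgroup G) (f : G → ℝ) (hf : ∀ a g : G, f (a * g * a⁻¹) = f g) :
    (∑ g ∈ YT T, f g) * Nat.card (Subgroup.normalizer (T : Set G)) =
      (∑ g ∈ univ.filter (fun t => t ∈ Tst T), f g) * Nat.card G := by
  have := Fintype.ofFinite (Subgroup.normalizer (T : Set G))
  set S : Finset G := univ.filter fun t => t ∈ Tst T with hS
  have h1 : ∑ p ∈ (univ : Finset G) ×ˢ S, f (p.1 * p.2 * p.1⁻¹) = ∑ g ∈ YT T,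
      ∑ p ∈ ((univ : Finset G) ×ˢ S).filter (fun p => p.1 * p.2 * p.1⁻¹ = g), f (p.1 * p.2 * p.1⁻¹) := by
    symm
    apply Finset.sum_fiberwise_of_maps_to
    rintro ⟨a, t⟩ ht
    simp only [Finset.mem_product, hS, mem_filter, mem_univ, true_and] at ht
    rw [mem_YT]
    refine ⟨a, ?_⟩
    have : a⁻¹ * (a * t * a⁻¹) * a = t := by group
    rw [this]
    exact ht
  have h2 : ∀ g ∈ YT T, (((univ : Finset G) ×ˢ S).filter fun p => p.1 * p.2 * p.1⁻¹ = g).card =
      Nat.card (Subgroup.normalizer (T : Set G)) := by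
    intro g hg
    obtain ⟨a, ha⟩ := mem_YT.1 hg
    rw [Nat.card_eq_fintype_card, ← Finset.card_univ]
    symm
    refine Finset.card_bij (fun b _ => (a * (b : G)⁻¹, b * (a⁻¹ * g * a) * (b : G)⁻¹)) ?_ ?_ ?_
    · intro b _
      simp only [mem_filter, Finset.mem_product, mem_univ, true_and, hS]
      exact ⟨conj_mem_Tst ha b.2, by group⟩
    · intro b _ c _ hbc
      have h3 : a * (b : G)⁻¹ = a * (c : G)⁻¹ := congrArg Prod.fst hbc
      exact Subtype.ext (inv_injective (mul_left_cancel h3))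
    · rintro ⟨c, t⟩ hct
      simp only [mem_filter, Finset.mem_product, mem_univ, true_and, hS] at hct
      obtain ⟨ht, hct⟩ := hct
      have h3 : (c⁻¹ * a) * (a⁻¹ * g * a) * (c⁻¹ * a)⁻¹ = t := by rw [← hct]; group
      refine ⟨⟨c⁻¹ * a, mem_normalizer_of_conj ha ht h3⟩, mem_univ _, ?_⟩
      refine Prod.ext ?_ h3
      show a * (c⁻¹ * a)⁻¹ = c
      group
  have h3 : ∀ g ∈ YT T, ∑ p ∈ ((univ : Finset G) ×ˢ S).filter (fun p => p.1 * p.2 * p.1⁻¹ = g),
      f (p.1 * p.2 * p.1⁻¹) = f g * Nat.card (Subgroup.normalizer (T : Set G)) := by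
    intro g hg
    rw [Finset.sum_congr rfl fun p hp => by rw [(mem_filter.1 hp).2], Finset.sum_const, h2 g hg, nsmul_eq_mul, mul_comm]
  rw [Finset.sum_congr rfl h3, ← Finset.sum_mul] at h1
  rw [← h1, Finset.sum_product, Finset.sum_congr rfl fun a _ => Finset.sum_congr rfl fun t _ => hf a t, Finset.sum_const,
    Finset.card_univ, nsmul_eq_mul, mul_comm, Nat.card_eq_fintype_card]

/-- the mean of `|χ|²` on a set `Tst T` -/
theorem mul_sum_le [Fintype G] {χ : IrrCharacter G} {x : G} (h : One χ x) {T : Subgroup G}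
    [DecidablePred fun t => t ∈ Tst T] {c w t : ℕ}
    (hw : Nat.card (Subgroup.normalizer (T : Set G)) = w * t) (hc : c ≤ Nat.card (Subgroup.centralizer ({x} : Set G))) :
    (c : ℝ) * ∑ g ∈ univ.filter (fun t => t ∈ Tst T), Complex.normSq ((χ : G → ℂ) g) ≤
      c * Nat.card (Tst T) + w * t := by
  classical
  have hG : (0 : ℝ) < Nat.card G := by exact_mod_cast Nat.card_pos
  set Z : Finset G := univ.filter fun g : G => (χ : G → ℂ) g = 0 with hZ
  have hY : H695.OneZero.Gal (YT T ∩ Zᶜ) := (gal_YT T).inter (H695.OneZero.gal_zero χ).compl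
  have h1 := H695.OneZero.sum_le χ hY fun g hg h0 =>
    (mem_compl.1 (mem_inter.1 hg).2) (mem_filter.2 ⟨mem_univ _, h0⟩)
  have h2 : ∑ g ∈ YT T ∩ Zᶜ, Complex.normSq ((χ : G → ℂ) g) = ∑ g ∈ YT T, Complex.normSq ((χ : G → ℂ) g) := by
    refine Finset.sum_subset Finset.inter_subset_left fun g hg hg' => ?_
    have : g ∈ Z := by
      by_contra hcon
      exact hg' (mem_inter.2 ⟨hg, mem_compl.2 hcon⟩)
    rw [(mem_filter.1 this).2, map_zero]
  rw [h2] at h1
  have h3 : ((YT T ∩ Zᶜ).card : ℝ) ≤ (YT T).card := by exact_mod_cast Finset.card_le_card Finset.inter_subset_left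
  have hcf : ∀ a g : G, Complex.normSq ((χ : G → ℂ) (a * g * a⁻¹)) = Complex.normSq ((χ : G → ℂ) g) := fun a g => by
    rw [Core.isIrr_isClassFunction χ.2 g a]
  have h4 := sum_YT T (fun g => Complex.normSq ((χ : G → ℂ) g)) hcf
  have h5 : (univ.filter fun t => t ∈ Tst T) = (@Finset.filter G (fun t => t ∈ Tst T) (fun a => Classical.propDecidable _) univ) := by
    congr
  rw [← h5] at h4
  set A : ℝ := ∑ g ∈ univ.filter (fun t => t ∈ Tst T), Complex.normSq ((χ : G → ℂ) g) with hA
  set B : ℝ := ∑ g ∈ YT T, Complex.normSq ((χ : G → ℂ) g) with hB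
  have h6 : ((YT T).card : ℝ) * Nat.card (Subgroup.normalizer (T : Set G)) = Nat.card (Tst T) * Nat.card G := by
    exact_mod_cast card_YT T
  have h7 : ((univ.filter fun g : G => (χ : G → ℂ) g = 0).card : ℝ)
      * Nat.card (Subgroup.centralizer ({x} : Set G)) = Nat.card G := by
    exact_mod_cast card_zeros h
  rw [hw] at h4 h6
  push_cast at h4 h6
  set z : ℝ := ((univ.filter fun g : G => (χ : G → ℂ) g = 0).card : ℝ) with hz
  have hz0 : 0 ≤ z := Nat.cast_nonneg _
  have hc' : (c : ℝ) ≤ Nat.card (Subgroup.centralizer ({x} : Set G)) := by exact_mod_cast hc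
  have h8 : z * c ≤ Nat.card G := by rw [← h7]; exact mul_le_mul_of_nonneg_left hc' hz0
  have h9 : B ≤ (YT T).card + z := by linarith
  have hwt : (0 : ℝ) ≤ w * t := by positivity
  have hcc : (0 : ℝ) ≤ c := Nat.cast_nonneg _
  have h10 : (c : ℝ) * A * Nat.card G ≤ (c * Nat.card (Tst T) + w * t) * Nat.card G := by
    calc (c : ℝ) * A * Nat.card G = c * (B * (w * t)) := by rw [h4]; ring
      _ ≤ c * (((YT T).card + z) * (w * t)) :=
          mul_le_mul_of_nonneg_left (mul_le_mul_of_nonneg_right h9 hwt) hcc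
      _ = c * (Nat.card (Tst T) * Nat.card G) + (z * c) * (w * t) := by rw [← h6]; ring
      _ ≤ c * (Nat.card (Tst T) * Nat.card G) + Nat.card G * (w * t) := by
          have := mul_le_mul_of_nonneg_right h8 hwt
          linarith
      _ = (c * Nat.card (Tst T) + w * t) * Nat.card G := by ring
  exact le_of_mul_le_mul_right h10 hG

/-! ### the restriction to a self-centralizing torus -/

section lower

variable [Finite G] {A : Subgroup G}

/-- **Dichotomy.**  A character of `G` is constant (an integer) on `A ∖ 1`, or the sum of its squares is large. -/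
theorem lower (hA : CC A) {m : ℕ} (hem : Nat.card A = eIdx A * m + 1) [Fintype A] [DecidableEq A] {χ : G → ℂ}
    (hχ : IsCharacter G χ) :
    (∃ z : ℤ, (∀ a ∈ A, a ≠ 1 → χ a = (z : ℂ)) ∧ ∃ k : ℤ, χ 1 = ((z + Nat.card A * k : ℤ) : ℂ)) ∨
      (Nat.card A : ℝ) * (eIdx A ^ 2 * (m - 1)) ≤
        ((Nat.card A : ℝ) - 1) * ∑ a : A, (if a = 1 then 0 else ‖χ a‖ ^ 2) := by
  classical
  have := Fintype.ofFinite G
  have := Core.finite_irr (G := A)
  have := Fintype.ofFinite (IrrCharacter A)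
  set n : ℕ := Nat.card A with hn
  set e : ℕ := eIdx A with he
  have he0 : 0 < e := by
    rw [he]
    exact Nat.pos_of_ne_zero Subgroup.index_ne_zero_of_finite
  obtain ⟨c, s, h1, h2, h3, h4⟩ := hA.exists_data hχ
  by_cases hcon : ∃ ψ φ : IrrCharacter A, ψ ≠ one A ∧ φ ≠ one A ∧ c ψ ≠ c φ
  · right
    have hone : ∀ ψ : IrrCharacter A, ψ ≠ one A → (ψ : A → ℂ) ≠ 1 := fun ψ hψ h =>
      hψ (Subtype.ext h)
    have hLcard : (Finset.univ.erase (one A)).card = e * m := by
      rw [Finset.card_erase_of_mem (Finset.mem_univ _), Finset.card_univ, hA.card_irr, ← hn, hem]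
      omega
    have hQ : (2 * e ^ 2 * (m - 1) : ℝ) ≤
        ∑ ψ ∈ Finset.univ.erase (one A), ∑ φ ∈ Finset.univ.erase (one A),
          ((c ψ : ℝ) - c φ) ^ 2 := by
      obtain ⟨ψ₀, φ₀, hψ₀, hφ₀, hne⟩ := hcon
      let U : Finset (IrrCharacter A) := (Finset.univ.erase (one A)).filter fun ψ => c ψ = c ψ₀
      let U' : Finset (IrrCharacter A) := (Finset.univ.erase (one A)).filter fun ψ => c ψ ≠ c ψ₀
      have hact1 : ∀ h (ψ : IrrCharacter A), ψ ≠ one A → actI h ψ ≠ one A := by
        intro h ψ hψ heq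
        apply hψ
        apply Subtype.ext
        funext a
        have h5 := congrFun (congrArg Subtype.val heq) (Subgroup.normalizerMonoidHom A h a)
        rw [actI_apply] at h5
        have h6 : (Subgroup.normalizerMonoidHom A h)⁻¹ (Subgroup.normalizerMonoidHom A h a) = a :=
          MulEquiv.symm_apply_apply (Subgroup.normalizerMonoidHom A h) a
        rw [h6] at h5
        exact h5
      have hdU : e ∣ U.card := by
        rw [← Set.ncard_coe_finset]
        apply hA.dvd_ncard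
        · intro ψ hψ
          rw [Finset.mem_coe, Finset.mem_filter, Finset.mem_erase] at hψ
          exact hone _ hψ.1.1
        · intro h ψ hψ
          rw [Finset.mem_coe, Finset.mem_filter, Finset.mem_erase] at hψ ⊢
          exact ⟨⟨hact1 h ψ hψ.1.1, Finset.mem_univ _⟩, by rw [h1]; exact hψ.2⟩
      have hdU' : e ∣ U'.card := by
        rw [← Set.ncard_coe_finset]
        apply hA.dvd_ncard
        · intro ψ hψ
          rw [Finset.mem_coe, Finset.mem_filter, Finset.mem_erase] at hψ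
          exact hone _ hψ.1.1
        · intro h ψ hψ
          rw [Finset.mem_coe, Finset.mem_filter, Finset.mem_erase] at hψ ⊢
          exact ⟨⟨hact1 h ψ hψ.1.1, Finset.mem_univ _⟩, by rw [h1]; exact hψ.2⟩
      have hUU : U.card + U'.card = e * m := by
        rw [← hLcard]
        exact Finset.card_filter_add_card_filter_not (s := Finset.univ.erase (one A))
          (fun ψ => c ψ = c ψ₀)
      have hUpos : 0 < U.card := Finset.card_pos.2 ⟨ψ₀, by
        rw [Finset.mem_filter, Finset.mem_erase]; exact ⟨⟨hψ₀, Finset.mem_univ _⟩, rfl⟩⟩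
      have hU'pos : 0 < U'.card := Finset.card_pos.2 ⟨φ₀, by
        rw [Finset.mem_filter, Finset.mem_erase]; exact ⟨⟨hφ₀, Finset.mem_univ _⟩, fun h => hne h.symm⟩⟩
      obtain ⟨u, hu⟩ := hdU
      obtain ⟨u', hu'⟩ := hdU'
      have hu1 : 1 ≤ u := by
        rcases Nat.eq_zero_or_pos u with h | h
        · rw [h, mul_zero] at hu; omega
        · exact h
      have hu1' : 1 ≤ u' := by
        rcases Nat.eq_zero_or_pos u' with h | h
        · rw [h, mul_zero] at hu'; omega
        · exact h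
      have huu : u + u' = m := by
        rw [hu, hu', ← mul_add] at hUU
        exact Nat.eq_of_mul_eq_mul_left he0 hUU
      have hprod : (m : ℝ) - 1 ≤ u * u' := by
        have : ((u : ℝ) - 1) * (u' - 1) ≥ 0 := mul_nonneg (by
          have : (1 : ℝ) ≤ u := by exact_mod_cast hu1
          linarith) (by
          have : (1 : ℝ) ≤ u' := by exact_mod_cast hu1'
          linarith)
        have h7 : (u : ℝ) + u' = m := by exact_mod_cast huu
        nlinarith
      have hdisj : Disjoint U U' := by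
        rw [Finset.disjoint_left]
        intro ψ hψ hψ'
        exact (Finset.mem_filter.1 hψ').2 (Finset.mem_filter.1 hψ).2
      have hone' : ∀ ψ ∈ U, ∀ φ ∈ U', (1 : ℝ) ≤ ((c ψ : ℝ) - c φ) ^ 2 := by
        intro ψ hψ φ hφ
        have e1 : c ψ ≠ c φ := by
          rw [(Finset.mem_filter.1 hψ).2]
          exact fun h => (Finset.mem_filter.1 hφ).2 h.symm
        have e2 : ((c ψ : ℤ) - c φ) ≠ 0 := by
          intro h
          apply e1
          have : (c ψ : ℤ) = c φ := by linarith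
          exact_mod_cast this
        have e3 : (1 : ℤ) ≤ ((c ψ : ℤ) - c φ) ^ 2 := by
          have := Int.one_le_abs e2
          nlinarith [sq_abs ((c ψ : ℤ) - c φ), abs_nonneg ((c ψ : ℤ) - c φ)]
        exact_mod_cast e3
      have hsub : (Finset.univ.erase (one A)) = U ∪ U' :=
        (Finset.filter_union_filter_not_eq (fun ψ => c ψ = c ψ₀) _).symm
      have hS1 : (U.card * U'.card : ℝ) ≤ ∑ ψ ∈ U, ∑ φ ∈ Finset.univ.erase (one A),
          ((c ψ : ℝ) - c φ) ^ 2 := by
        calc (U.card * U'.card : ℝ) = ∑ ψ ∈ U, ∑ φ ∈ U', (1 : ℝ) := by simp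
          _ ≤ ∑ ψ ∈ U, ∑ φ ∈ U', ((c ψ : ℝ) - c φ) ^ 2 :=
              Finset.sum_le_sum fun ψ hψ => Finset.sum_le_sum fun φ hφ => hone' ψ hψ φ hφ
          _ ≤ _ := Finset.sum_le_sum fun ψ hψ => Finset.sum_le_sum_of_subset_of_nonneg
              (Finset.filter_subset _ _) fun φ _ _ => sq_nonneg _
      have hS2 : (U.card * U'.card : ℝ) ≤ ∑ ψ ∈ U', ∑ φ ∈ Finset.univ.erase (one A),
          ((c ψ : ℝ) - c φ) ^ 2 := by
        calc (U.card * U'.card : ℝ) = ∑ ψ ∈ U', ∑ φ ∈ U, (1 : ℝ) := by simp [mul_comm]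
          _ ≤ ∑ ψ ∈ U', ∑ φ ∈ U, ((c ψ : ℝ) - c φ) ^ 2 :=
              Finset.sum_le_sum fun ψ hψ => Finset.sum_le_sum fun φ hφ => by
                rw [← neg_sub, neg_sq]
                exact hone' φ hφ ψ hψ
          _ ≤ _ := Finset.sum_le_sum fun ψ hψ => Finset.sum_le_sum_of_subset_of_nonneg
              (Finset.filter_subset _ _) fun φ _ _ => sq_nonneg _
      conv_rhs => rw [hsub, Finset.sum_union hdisj]
      rw [← hsub]
      have hUr : (U.card : ℝ) = e * u := by rw [hu]; push_cast; ring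
      have hU'r : (U'.card : ℝ) = e * u' := by rw [hu']; push_cast; ring
      rw [hUr, hU'r] at hS1 hS2
      have he2 : (0 : ℝ) ≤ (e : ℝ) ^ 2 := sq_nonneg _
      have h8 : (2 * e ^ 2 * (m - 1) : ℝ) ≤ (e * u * (e * u') : ℝ) + (e * u * (e * u') : ℝ) := by
        have : (e : ℝ) ^ 2 * ((m : ℝ) - 1) ≤ (e : ℝ) ^ 2 * (u * u') :=
          mul_le_mul_of_nonneg_left hprod he2
        nlinarith
      linarith
    have h5 : (n : ℝ) * (2 * e ^ 2 * (m - 1)) ≤ (n : ℝ) * ∑ ψ ∈ Finset.univ.erase (one A),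
        ∑ φ ∈ Finset.univ.erase (one A), ((c ψ : ℝ) - c φ) ^ 2 := mul_le_mul_of_nonneg_left hQ (Nat.cast_nonneg _)
    rw [h4] at h5
    nlinarith [sq_nonneg s]
  · left
    push Not at hcon
    obtain ⟨c', hc1, hc2, -⟩ := exists_mult (A := A) hχ
    -- the common multiplicity
    obtain ⟨μ, hμ⟩ : ∃ μ : ℕ, ∀ ψ : IrrCharacter A, ψ ≠ one A → c ψ = μ := by
      by_cases hex : ∃ ψ : IrrCharacter A, ψ ≠ one A
      · obtain ⟨ψ, hψ⟩ := hex
        exact ⟨c ψ, fun φ hφ => hcon φ ψ hφ hψ⟩
      · exact ⟨0, fun ψ hψ => absurd ⟨ψ, hψ⟩ hex⟩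
    have h5 := h2 μ hμ
    set z : ℤ := (c (one A) : ℤ) - μ with hz
    refine ⟨z, fun a ha ha1 => ?_, (c' (one A) : ℤ) - z, ?_⟩
    · have h6 := h5 ⟨a, ha⟩ (fun h => ha1 (congrArg Subtype.val h))
      rw [h6]
    · have h6 := hc2 (one A)
      have h7 : ∑ a : A, χ a * conj ((one A : A → ℂ) a) = χ 1 + ((n : ℂ) - 1) * z := by
        rw [← Finset.add_sum_erase Finset.univ _ (Finset.mem_univ (1 : A))]
        rw [Finset.sum_congr rfl fun a ha => by
          rw [h5 a (Finset.ne_of_mem_erase ha), one_apply, map_one, mul_one]]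
        rw [Finset.sum_const, Finset.card_erase_of_mem (Finset.mem_univ _), Finset.card_univ,
          ← Nat.card_eq_fintype_card, nsmul_eq_mul, Nat.cast_sub Nat.card_pos, one_apply, map_one, mul_one,
          OneMemClass.coe_one, Nat.cast_one]
      rw [h7] at h6
      push_cast
      linear_combination -h6

end lower

/-! ### the torus lemma -/

section main

theorem sum_eq [Fintype G] {T : Subgroup G} (hT : CC T) (hne : T ≠ ⊤) [Fintype T] [DecidableEq T]
    [DecidablePred fun t => t ∈ Tst T] (χ : G → ℂ) :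
    ∑ g ∈ univ.filter (fun t => t ∈ Tst T), Complex.normSq (χ g) = ∑ a : T, (if a = 1 then 0 else ‖χ a‖ ^ 2) := by
  classical
  have h1 : ∑ a : T, (if a = 1 then 0 else ‖χ a‖ ^ 2) = ∑ a ∈ univ.filter (fun a : T => a ≠ 1), ‖χ a‖ ^ 2 := by
    rw [Finset.sum_filter]
    refine Finset.sum_congr rfl fun a _ => ?_
    by_cases ha : a = 1 <;> simp [ha]
  rw [h1]
  symm
  refine Finset.sum_bij (fun (a : T) _ => (a : G)) ?_ ?_ ?_ ?_
  · intro a ha
    rw [mem_filter, tst_eq hT hne]
    exact ⟨mem_univ _, a.2, fun h => (mem_filter.1 ha).2 (Subtype.ext h)⟩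
  · intro a _ b _ hab
    exact Subtype.ext hab
  · intro g hg
    rw [mem_filter, tst_eq hT hne] at hg
    obtain ⟨-, h2, h3⟩ := hg
    exact ⟨⟨g, h2⟩, mem_filter.2 ⟨mem_univ _, fun h => h3 (congrArg Subtype.val h)⟩, rfl⟩
  · intro a _
    rw [Complex.normSq_eq_norm_sq]

theorem card_Tst [Finite G] {T : Subgroup G} (hT : CC T) (hne : T ≠ ⊤) : Nat.card (Tst T) = Nat.card T - 1 := by
  classical
  have := Fintype.ofFinite G
  have h1 : Nat.card (Tst T) = Nat.card {a : T // a ≠ 1} := by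
    rw [tst_eq hT hne]
    exact Nat.card_congr
      ⟨fun a => ⟨⟨a.1, a.2.1⟩, fun h => a.2.2 (congrArg Subtype.val h)⟩,
       fun a => ⟨a.1.1, a.1.2, fun h => a.2 (Subtype.ext h)⟩, fun _ => rfl, fun _ => rfl⟩
  have : Fintype T := Fintype.ofFinite T
  rw [h1, Nat.card_eq_fintype_card, Nat.card_eq_fintype_card, Fintype.card_subtype_compl, Fintype.card_subtype_eq]

theorem eIdx_eq [Finite G] {T : Subgroup G} {w t : ℕ} (ht : Nat.card T = t)
    (hw : Nat.card (Subgroup.normalizer (T : Set G)) = w * t) : eIdx T = w := by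
  have ht0 : 0 < t := by rw [← ht]; exact Nat.card_pos
  have h1 := (T.subgroupOf (Subgroup.normalizer (T : Set G))).card_mul_index
  have h2 : Nat.card (T.subgroupOf (Subgroup.normalizer (T : Set G))) = t := by
    rw [← ht]
    exact Nat.card_congr (Subgroup.subgroupOfEquivOfLe Subgroup.le_normalizer).toEquiv
  rw [h2, hw] at h1
  have h3 : t * eIdx T = t * w := by
    show t * (T.subgroupOf (Subgroup.normalizer (T : Set G))).index = t * w
    rw [h1, mul_comm]
  exact Nat.eq_of_mul_eq_mul_left ht0 h3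

/-- **The torus lemma.**  `T` abelian, `C_G(a) = T` for `1 ≠ a ∈ T`, `|T| = t`, `|N_G(T)| = w t`, `χ` vanishes exactly on
the class of `x`, `c ≤ |C_G(x)|`: then `χ` is constant `e = ±1` on `T ∖ 1` and `χ(1) ≡ e` modulo `t`. -/
theorem torus [Finite G] {χ : IrrCharacter G} {x : G} (h : One χ x) {T : Subgroup G} (hT : CC T) {w t c : ℕ}
    (ht : Nat.card T = t) (hw : Nat.card (Subgroup.normalizer (T : Set G)) = w * t) (hw2 : 2 ≤ w)
    (hc : c ≤ Nat.card (Subgroup.centralizer ({x} : Set G))) (h0 : w + 1 < t)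
    (h1 : (t - 1) * (c * (t - 1) + w * t) < c * (t * w * (t - 1 - w))) (h2 : w * t < 3 * c * (t - 1)) :
    ∃ e : ℤ, (e = 1 ∨ e = -1) ∧ (∀ a ∈ T, a ≠ 1 → (χ : G → ℂ) a = (e : ℂ)) ∧
      (t : ℤ) ∣ (charDegree (χ : G → ℂ) : ℤ) - e := by
  classical
  have := Fintype.ofFinite G
  have := Fintype.ofFinite T
  have ht0 : 0 < t := by rw [← ht]; exact Nat.card_pos
  have hne : T ≠ ⊤ := by
    rintro rfl
    have h3 : Nat.card (Subgroup.normalizer ((⊤ : Subgroup G) : Set G)) = t := by
      rw [← ht]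
      have : Subgroup.normalizer ((⊤ : Subgroup G) : Set G) = ⊤ := by
        rw [eq_top_iff]
        exact Subgroup.le_normalizer
      rw [this]
    rw [hw] at h3
    have h4 : w = 1 := Nat.eq_of_mul_eq_mul_right ht0 (by rw [h3, one_mul])
    omega
  have he := eIdx_eq ht hw
  obtain ⟨m, hm⟩ := hT.dvd
  rw [he, ht] at hm
  have hem : Nat.card T = eIdx T * m + 1 := by rw [he, ht]; omega
  have hm1 : 1 < m := by
    by_contra hcon
    have : w * m ≤ w * 1 := Nat.mul_le_mul_left _ (not_lt.1 hcon)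
    omega
  have hS := mul_sum_le h hw hc (T := T)
  rw [sum_eq hT hne, card_Tst hT hne, ht] at hS
  rw [Nat.cast_sub (by omega : 1 ≤ t), Nat.cast_one] at hS
  set S : ℝ := ∑ a : T, (if a = 1 then 0 else ‖(χ : G → ℂ) a‖ ^ 2) with hSdef
  have htr : (t : ℝ) = w * m + 1 := by
    have : t = w * m + 1 := by omega
    rw [this]; push_cast; ring
  have hwr : (2 : ℝ) ≤ w := by exact_mod_cast hw2
  have hmr : (2 : ℝ) ≤ m := by exact_mod_cast hm1
  have hcr : (0 : ℝ) ≤ c := Nat.cast_nonneg _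
  rcases lower hT hem (Core.isIrr_isCharacter χ.2) with ⟨z, hz, k, hk⟩ | hlow
  · refine ⟨z, ?_, hz, ?_⟩
    · -- `z ≠ 0`
      have hz0 : z ≠ 0 := by
        rintro rfl
        obtain ⟨a, ha1⟩ : ∃ a : T, a ≠ 1 := by
          by_contra hcon
          push Not at hcon
          have h3 : Nat.card T ≤ 1 := by
            have : Subsingleton T := ⟨fun a b => by rw [hcon a, hcon b]⟩
            exact Finite.card_le_one_iff_subsingleton.2 this
          omega
        have h3 := hT.card_conj ha1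
        rw [he] at h3
        have h4 : Nat.card {b : T // b ≠ 1} ≤ Nat.card {b : T // IsConj (a : G) (b : G)} := by
          refine Nat.card_le_card_of_injective
            (fun b => ⟨b.1, ?_⟩) fun b b' hb => Subtype.ext (congrArg (fun y => y.1) hb)
          have hza := hz a a.2 (fun h => ha1 (Subtype.ext h))
          have hzb := hz b.1 b.1.2 (fun h => b.2 (Subtype.ext h))
          rw [Int.cast_zero] at hza hzb
          exact (h.uniq _ hza).symm.trans (h.uniq _ hzb)
        have h5 : Nat.card {b : T // b ≠ 1} = t - 1 := by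
          rw [Nat.card_eq_fintype_card, Fintype.card_subtype_compl, Fintype.card_subtype_eq,
            ← Nat.card_eq_fintype_card, ht]
        omega
      -- `|z| ≤ 1`
      have h3 : S = ((t : ℝ) - 1) * (z : ℝ) ^ 2 := by
        rw [hSdef, ← Finset.add_sum_erase Finset.univ _ (Finset.mem_univ (1 : T)), if_pos rfl, zero_add,
          Finset.sum_congr rfl fun a ha => by
            rw [if_neg (Finset.ne_of_mem_erase ha), hz a a.2 (fun h => Finset.ne_of_mem_erase ha (Subtype.ext h)),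
              Complex.norm_intCast, sq_abs],
          Finset.sum_const, Finset.card_erase_of_mem (Finset.mem_univ _), Finset.card_univ,
          ← Nat.card_eq_fintype_card, ht, nsmul_eq_mul, Nat.cast_sub (by omega : 1 ≤ t), Nat.cast_one]
      by_contra hcon
      push Not at hcon
      have h4 : (4 : ℤ) ≤ z ^ 2 := by
        have : z ≤ -2 ∨ 2 ≤ z := by omega
        rcases this with h | h <;> nlinarith
      have h5 : (4 : ℝ) ≤ (z : ℝ) ^ 2 := by exact_mod_cast h4
      have h6 : ((w * t : ℕ) : ℝ) < ((3 * c * (t - 1) : ℕ) : ℝ) := by exact_mod_cast h2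
      push_cast [Nat.cast_sub (by omega : 1 ≤ t)] at h6
      rw [h3] at hS
      have h7 : (0 : ℝ) ≤ c * ((t : ℝ) - 1) := by
        refine mul_nonneg hcr ?_
        rw [htr]
        nlinarith
      nlinarith
    · refine ⟨k, ?_⟩
      have h3 : ((charDegree (χ : G → ℂ) : ℤ) : ℂ) = ((z + t * k : ℤ) : ℂ) := by
        rw [← ht, ← hk, ← charDegree_irr χ]
        push_cast
        rfl
      have h4 : (charDegree (χ : G → ℂ) : ℤ) = z + t * k := by exact_mod_cast h3
      rw [h4]; ring
  · exfalso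
    rw [he, ht] at hlow
    have h3 : (((t - 1) * (c * (t - 1) + w * t) : ℕ) : ℝ) < ((c * (t * w * (t - 1 - w)) : ℕ) : ℝ) := by
      exact_mod_cast h1
    push_cast [Nat.cast_sub (by omega : 1 ≤ t), Nat.cast_sub (by omega : w ≤ t - 1)] at h3
    -- `c t w² (m - 1) ≤ (t - 1) c S ≤ (t - 1) (c (t - 1) + w t)`
    have h4 : (c : ℝ) * ((t : ℝ) * (w ^ 2 * (m - 1))) ≤ c * (((t : ℝ) - 1) * S) := mul_le_mul_of_nonneg_left hlow hcr
    have h5 : ((t : ℝ) - 1) * (c * S) ≤ ((t : ℝ) - 1) * (c * ((t : ℝ) - 1) + w * t) := by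
      refine mul_le_mul_of_nonneg_left hS ?_
      rw [htr]
      nlinarith
    have h6 : (w : ℝ) * ((t : ℝ) - 1 - w) = w ^ 2 * (m - 1) := by rw [htr]; ring
    have h7 : (c : ℝ) * (t * w * (t - 1 - w)) = c * ((t : ℝ) * (w ^ 2 * (m - 1))) := by rw [← h6]; ring
    have h8 : (c : ℝ) * (((t : ℝ) - 1) * S) = ((t : ℝ) - 1) * (c * S) := by ring
    linarith

end main

end Cfsg.Agent.H210.Van
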